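import Mathlib
import Cfsg.Agent.H805.Main
import Cfsg.Agent.H805.PrimSimple
import Cfsg.Agent.Fischer160.Piece

set_option autoImplicit false

/-!
# S5369: exclusion of the cases with noncentral local cores
-/

namespace Cfsg.Agent.H805.PrimCase

open Cfsg Cfsg.Agent.SporadicStructure.FischerSpace
open Cfsg.Agent.ThreeTransPolar.Basic Cfsg.Agent.ThreeTransPolar.Lines
open Cfsg.Agent.Fischer480.Defs
open Cfsg.Agent.Fischer160.Inherit (HH ThinLines)

universe u

variable {G : Type u} [Group G] {D : Set G}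

/-- a primitive 3-transposition group is generated by a class -/
theorem class_of_prim (hD : IsThreeTranspositionGroup D) (hprim : IsPrimitiveUnderConj D) :
    IsThreeTranspositionClass D := by
  obtain ⟨h1, h2, h3⟩ := hD
  obtain ⟨a, ha, -⟩ := hprim.2.1
  refine ⟨h1, ⟨a, ha, ?_⟩, h3⟩
  ext b
  show b ∈ D ↔ IsConj a b
  rw [isConj_iff]
  constructor
  · exact fun hb => hprim.1 a ha b hb
  · rintro ⟨g, rfl⟩
    exact h2 g a ha

theorem not_sp {n : ℕ} (ht : ThinLines D) (hw : ∃ a ∈ D, ∃ b ∈ D, a ≠ b ∧ Commute a b) :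
    ¬ IsSp n D := by
  rintro ⟨B, f, hA, hB, h0, hc, hi, hs⟩
  obtain ⟨a, ha, b, hb, hab, hcom⟩ := hw
  have hne : f a + f b ≠ 0 := by
    intro h
    apply hab
    apply hi a ha b hb
    rw [add_eq_zero_iff_eq_neg] at h
    rw [h, ZModModule.neg_eq_self]
  obtain ⟨z, hz, hfz⟩ := hs _ hne
  have hL : z ∈ Line D a b := by
    refine ⟨hz, fun d hd h1 h2 => ?_⟩
    rw [hc d hd z hz, hfz, map_add, (hc d hd a ha).1 h1, (hc d hd b hb).1 h2, add_zero]
  rcases ht a ha b hb hab hcom z hL with h | h
  · rw [h] at hfz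
    exact h0 b hb (by simpa using hfz.symm)
  · rw [h] at hfz
    exact h0 a ha (by simpa using hfz.symm)

theorem not_isU {n : ℕ} (ht : ThinLines D) (hw : ∃ a ∈ D, ∃ b ∈ D, a ≠ b ∧ Commute a b) :
    ¬ IsU n D := by
  intro hU
  obtain ⟨F, i1, i2, f, U⟩ := Cfsg.Agent.S0480U.UModel.exists_um hU
  have H := U.herm
  have add_right : ∀ u v w, hermForm n F 2 w u = 0 → hermForm n F 2 w v = 0 →
      hermForm n F 2 w (u + v) = 0 := by
    intro u v w h1 h2
    have h3 : hermForm n F 2 u w = 0 := by rw [H.swap w u, h1]; simp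
    have h4 : hermForm n F 2 v w = 0 := by rw [H.swap w v, h2]; simp
    rw [H.swap (u + v) w, H.add_left, h3, h4]
    simp
  obtain ⟨a, ha, b, hb, hab, hcom⟩ := hw
  have hne : f a + f b ≠ 0 := by
    intro h
    apply hab
    apply U.inj a ha b hb (-1)
    rw [add_eq_zero_iff_eq_neg] at h
    rw [h, neg_one_smul]
  have h1 : hermForm n F 2 (f a) (f b) = 0 := (U.comm a ha b hb).1 hcom
  have h2 : hermForm n F 2 (f b) (f a) = 0 := (U.comm b hb a ha).1 hcom.symm
  have hiso : hermForm n F 2 (f a + f b) (f a + f b) = 0 := by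
    rw [H.add_left, add_right _ _ _ (U.iso a ha) h1, add_right _ _ _ h2 (U.iso b hb), add_zero]
  obtain ⟨z, hz, c, hfz⟩ := U.surj _ hne hiso
  have hc0 : c ≠ 0 := by
    rintro rfl
    rw [zero_smul] at hfz
    exact hne hfz
  have hz' : f z = c⁻¹ • (f a + f b) := by rw [hfz, smul_smul, inv_mul_cancel₀ hc0, one_smul]
  have hL : z ∈ Line D a b := by
    refine ⟨hz, fun d hd h3 h4 => ?_⟩
    have h5 := add_right _ _ _ ((U.comm d hd a ha).1 h3) ((U.comm d hd b hb).1 h4)
    have h6 : hermForm n F 2 (f a + f b) (f d) = 0 := by rw [H.swap (f d) _, h5]; simp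
    rw [U.comm d hd z hz, H.swap (f z) (f d), hz', H.smul_left, h6]
    simp
  rcases ht a ha b hb hab hcom z hL with h | h
  · rw [h] at hfz
    apply hab
    symm
    apply U.inj b hb a ha (c - 1)
    rw [sub_smul, one_smul, ← hfz]
    abel
  · rw [h] at hfz
    apply hab
    apply U.inj a ha b hb (c - 1)
    rw [sub_smul, one_smul, ← hfz]
    abel

theorem not_symSix (ht : ThinLines D) : ¬ IsSym 6 D := by
  rintro ⟨f, h1, h2, h3, h4⟩
  obtain ⟨a, ha, hfa⟩ := h4 {0, 1} (by decide)
  obtain ⟨b, hb, hfb⟩ := h4 {2, 3} (by decide)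
  obtain ⟨z, hz, hfz⟩ := h4 {4, 5} (by decide)
  have hab : a ≠ b := by
    rintro rfl
    rw [hfa] at hfb
    exact absurd hfb (by decide)
  have hcom : Commute a b := by
    rw [h2 a ha b hb, hfa, hfb]
    exact Or.inr (by decide)
  have hL : z ∈ Line D a b := by
    refine ⟨hz, fun d hd h5 h6 => ?_⟩
    rw [h2 d hd a ha, hfa] at h5
    rw [h2 d hd b hb, hfb] at h6
    rw [h2 d hd z hz, hfz]
    have h7 := h1 d hd
    generalize f d = s at h5 h6 h7
    revert s
    decide
  rcases ht a ha b hb hab hcom z hL with h | h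
  · rw [h, hfa] at hfz
    exact absurd hfz (by decide)
  · rw [h, hfb] at hfz
    exact absurd hfz (by decide)

/-- three members: a normal subgroup of order three -/
theorem not_three (h : FData D) {x a b : G} (ha : a ∈ Loc D x) (hb : b ∈ Loc D x)
    (hab : ¬ Commute a b)
    (hall : ∀ c ∈ Loc D x, c = a ∨ c = b ∨ c = a * b * a) :
    ¬ pCore 3 (HH D x) ≤ Subgroup.center (HH D x) := by
  intro hle
  have haD := ha.1
  have hbD := hb.1
  have sa := h.sq a haD
  have sb := h.sq b hbD
  have ia := h.inv_eq haD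
  have ib := h.inv_eq hbD
  have hbr := h.braid a haD b hbD hab
  have hH1 : a ∈ HH D x := Subgroup.subset_closure ha
  have hH2 : b ∈ HH D x := Subgroup.subset_closure hb
  have hnor : HH D x ≤ Subgroup.normalizer (Subgroup.zpowers (a * b) : Set G) := by
    rw [HH, Subgroup.closure_le]
    intro c hc
    have hinv : c * (a * b) * c⁻¹ = (a * b)⁻¹ := by
      rw [mul_inv_rev, ia, ib]
      rcases hall c hc with rfl | rfl | rfl
      · rw [ia, ← mul_assoc, sa, one_mul]
      · rw [ib]
        calc c * (a * c) * c = c * a * (c * c) := by group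
          _ = c * a := by rw [sb, mul_one]
      · rw [mul_inv_rev, mul_inv_rev, ia, ib]
        calc a * b * a * (a * b) * (a * (b * a)) = a * b * (a * a) * b * a * b * a := by group
          _ = a * (b * b) * a * b * a := by rw [sa, mul_one]; group
          _ = (a * a) * b * a := by rw [sb, mul_one]
          _ = b * a := by rw [sa, one_mul]
    rw [SetLike.mem_coe, Subgroup.mem_normalizer_iff_map_conj_eq, MonoidHom.map_zpowers]
    show Subgroup.zpowers (c * (a * b) * c⁻¹) = _
    rw [hinv, Subgroup.zpowers_inv]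
  have hsub : Subgroup.zpowers (a * b) ≤ HH D x := by
    rw [Subgroup.zpowers_le]
    exact mul_mem hH1 hH2
  have hn : ((Subgroup.zpowers (a * b)).subgroupOf (HH D x)).Normal := by
    rw [Subgroup.normal_subgroupOf_iff_le_normalizer hsub]
    exact hnor
  have hab3 : (a * b) ^ 3 = 1 := by
    calc (a * b) ^ 3 = (a * b * a) * (b * a * b) := by rw [pow_succ, pow_two]; group
      _ = (a * b * a) * (a * b * a) := by rw [hbr]
      _ = a * b * (a * a) * b * a := by group
      _ = 1 := by rw [sa, mul_one, mul_assoc a b b, sb, mul_one, sa]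
  have hab1 : a * b ≠ 1 := by
    intro h1
    apply hab
    have h2 : a = b⁻¹ := eq_inv_of_mul_eq_one_left h1
    rw [h2]
    exact (Commute.refl b).inv_left
  have hp : IsPGroup 3 ((Subgroup.zpowers (a * b)).subgroupOf (HH D x)) := by
    have h5 : IsPGroup 3 (Subgroup.zpowers (a * b)) :=
      IsPGroup.of_card (n := 1) (by
        rw [Nat.card_zpowers, orderOf_eq_prime hab3 hab1, pow_one])
    exact h5.comap_subtype
  have h6 : (Subgroup.zpowers (a * b)).subgroupOf (HH D x) ≤ pCore 3 (HH D x) :=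
    le_sSup ⟨hn, hp⟩
  have h7 : (⟨a * b, mul_mem hH1 hH2⟩ : HH D x) ∈ Subgroup.center (HH D x) :=
    hle (h6 (Subgroup.mem_subgroupOf.2 (Subgroup.mem_zpowers _)))
  have h8 := congrArg (fun z : HH D x => (z : G)) ((Subgroup.mem_center_iff.1 h7) ⟨a, hH1⟩)
  have h9 : a * (a * b) = a * b * a := h8
  rw [← mul_assoc, sa, one_mul] at h9
  exact hab ((h.commute_iff haD b).2 h9.symm)

theorem not_symFive (h : FData D) {x : G} (hx : x ∈ D)
    (h3 : pCore 3 (HH D x) ≤ Subgroup.center (HH D x)) : ¬ IsSym 5 D := by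
  rintro ⟨f, f1, f2, f3, f4⟩
  have hcard : (Finset.powersetCard 2 (f x)ᶜ).card = 3 := by
    rw [Finset.card_powersetCard, Finset.card_compl, Fintype.card_fin, f1 x hx]
    rfl
  have hmem : ∀ c ∈ Loc D x, f c ∈ Finset.powersetCard 2 (f x)ᶜ := by
    rintro c ⟨hc, hne, hcom⟩
    rw [Finset.mem_powersetCard]
    refine ⟨?_, f1 c hc⟩
    rcases (f2 x hx c hc).1 hcom with h5 | h5
    · exact absurd (f3 x hx c hc h5).symm hne
    · intro i hi
      rw [Finset.mem_compl]
      exact fun h6 => Finset.disjoint_left.1 h5 h6 hi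
  have hex : ∀ s ∈ Finset.powersetCard 2 (f x)ᶜ, ∃ c ∈ Loc D x, f c = s := by
    intro s hs
    rw [Finset.mem_powersetCard] at hs
    obtain ⟨c, hc, rfl⟩ := f4 s hs.2
    have hd : Disjoint (f x) (f c) := by
      rw [Finset.disjoint_left]
      intro i hi hi'
      exact (Finset.mem_compl.1 (hs.1 hi')) hi
    refine ⟨c, ⟨hc, ?_, (f2 x hx c hc).2 (Or.inr hd)⟩, rfl⟩
    rintro rfl
    have h5 := f1 c hc
    rw [Finset.disjoint_self_iff_empty] at hd
    rw [hd] at h5
    exact absurd h5 (by decide)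
  obtain ⟨s, hs, t, ht, hst⟩ := Finset.one_lt_card.1 (by rw [hcard]; norm_num :
    1 < (Finset.powersetCard 2 (f x)ᶜ).card)
  obtain ⟨a, ha, rfl⟩ := hex s hs
  obtain ⟨b, hb, rfl⟩ := hex t ht
  have hab : ¬ Commute a b := by
    intro hcom
    rcases (f2 a ha.1 b hb.1).1 hcom with h5 | h5
    · exact hst h5
    · have h6 : f a ∪ f b ⊆ (f x)ᶜ :=
        Finset.union_subset (Finset.mem_powersetCard.1 hs).1 (Finset.mem_powersetCard.1 ht).1
      have h7 := Finset.card_le_card h6
      rw [Finset.card_union_of_disjoint h5, Finset.card_compl, Fintype.card_fin, f1 x hx,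
        f1 a ha.1, f1 b hb.1] at h7
      omega
  have hcx : a * b * a ∈ Loc D x := by
    refine ⟨h.conj' ha.1 hb.1, ?_, ?_⟩
    · intro h5
      have h6 : Commute (a * b * a) a := by rw [h5]; exact ha.2.2
      apply hab
      have h7 : a * b * a * a = a * (a * b * a) := h6
      have h8 : a * b = b * a := by
        calc a * b = a * b * (a * a) := by rw [h.sq a ha.1, mul_one]
          _ = a * b * a * a := by group
          _ = a * (a * b * a) := h7
          _ = (a * a) * (b * a) := by group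
          _ = b * a := by rw [h.sq a ha.1, one_mul]
      exact h8
    · exact (ha.2.2.mul_right hb.2.2).mul_right ha.2.2
  refine not_three h ha hb hab ?_ h3
  intro c hc
  by_contra hcon
  push Not at hcon
  obtain ⟨n1, n2, n3⟩ := hcon
  have m1 : a * b * a ≠ a := by
    intro h5
    apply hab
    have h6 : a * (b * a) = a * 1 := by rw [mul_one, ← mul_assoc]; exact h5
    have h7 := mul_left_cancel h6
    have h8 : b = a⁻¹ := eq_inv_of_mul_eq_one_left h7
    rw [h8]
    exact (Commute.refl a).inv_right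
  have m2 : a * b * a ≠ b := fun h5 => hab ((h.commute_iff ha.1 b).2 h5)
  have m3 : a ≠ b := fun h5 => hab (by rw [h5])
  have hsub : ({f a, f b, f (a * b * a), f c} : Finset (Finset (Fin 5))) ⊆
      Finset.powersetCard 2 (f x)ᶜ := by
    intro s hs
    simp only [Finset.mem_insert, Finset.mem_singleton] at hs
    rcases hs with rfl | rfl | rfl | rfl
    · exact hmem a ha
    · exact hmem b hb
    · exact hmem _ hcx
    · exact hmem c hc
  have hcl := Finset.card_le_card hsub
  have key : ∀ u ∈ Loc D x, ∀ v ∈ Loc D x, u ≠ v → f u ≠ f v := fun u hu v hv huv h5 =>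
    huv (f3 u hu.1 v hv.1 h5)
  rw [hcard, Finset.card_insert_of_notMem, Finset.card_insert_of_notMem,
    Finset.card_insert_of_notMem, Finset.card_singleton] at hcl
  · omega
  · rw [Finset.mem_singleton]
    exact key _ hcx _ hc (fun h => n3 h.symm)
  · simp only [Finset.mem_insert, Finset.mem_singleton, not_or]
    exact ⟨key _ hb _ hcx (fun h => m2 h.symm), key _ hb _ hc (fun h => n2 h.symm)⟩
  · simp only [Finset.mem_insert, Finset.mem_singleton, not_or]
    exact ⟨key _ ha _ hb m3, key _ ha _ hcx (fun h => m1 h.symm), key _ ha _ hc (fun h => n1 h.symm)⟩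

end Cfsg.Agent.H805.PrimCase
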