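import Mathlib
import Cfsg.Agent.LieClassical.QuadForms
import Cfsg.Agent.S0762

set_option autoImplicit false

/-!
# Non degenerate quadratic forms over the field with two elements, even dimension
-/

namespace Cfsg.Agent.H805.QTwo

open Cfsg QuadraticMap Module
open Cfsg.Agent.LieClassical.QuadForms

universe u

local notation "F₂" => ZMod 2

theorem z_cases (a : F₂) : a = 0 ∨ a = 1 := by
  revert a; decide

theorem z_ne {a : F₂} (h : a ≠ 0) : a = 1 := by
  rcases z_cases a with h1 | h1
  · exact absurd h1 h
  · exact h1

theorem z_add (a : F₂) : a + a = 0 := by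
  revert a; decide

section

variable {V : Type u} [AddCommGroup V] [Module F₂ V]

theorem v_add (v : V) : v + v = 0 := by
  have h : (2 : F₂) = 0 := by decide
  have := two_smul F₂ v
  rw [h, zero_smul] at this
  exact this.symm

variable {Q : QuadraticForm F₂ V}

theorem p_self (v : V) : polar Q v v = 0 := by
  rw [QuadraticMap.polar_self, two_smul]
  exact z_add _

theorem q_add (v w : V) : Q (v + w) = Q v + Q w + polar Q v w := by
  rw [QuadraticMap.map_add (⇑Q)]

/-- The subspace orthogonal to two vectors. -/
def perp2 (Q : QuadraticForm F₂ V) (v w : V) : Submodule F₂ V :=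
  LinearMap.ker (polarBilin Q v) ⊓ LinearMap.ker (polarBilin Q w)

theorem mem_perp2 {v w x : V} : x ∈ perp2 Q v w ↔ polar Q v x = 0 ∧ polar Q w x = 0 := Iff.rfl

/-- The decomposition belonging to a pair of vectors with polar value 1. -/
noncomputable def split {v w : V} (h : polar Q v w = 1) :
    (perp2 Q v w × F₂ × F₂) ≃ₗ[F₂] V where
  toFun p := (p.1 : V) + p.2.1 • v + p.2.2 • w
  invFun x := (⟨x + polar Q w x • v + polar Q v x • w, by
    rw [mem_perp2]
    constructor
    · rw [polar_add_right, polar_add_right, polar_smul_right, polar_smul_right, p_self, h]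
      simp only [smul_eq_mul, mul_zero, mul_one, add_zero]
      exact z_add _
    · rw [polar_add_right, polar_add_right, polar_smul_right, polar_smul_right, p_self,
        polar_comm _ w v, h]
      simp only [smul_eq_mul, mul_zero, mul_one, add_zero]
      exact z_add _⟩, polar Q w x, polar Q v x)
  map_add' p q := by
    simp only [Prod.fst_add, Prod.snd_add, Submodule.coe_add, add_smul]
    abel
  map_smul' c p := by
    simp only [Prod.smul_fst, Prod.smul_snd, Submodule.coe_smul, smul_eq_mul, mul_smul,
      RingHom.id_apply, smul_add]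
  left_inv p := by
    obtain ⟨⟨u, hu⟩, a, b⟩ := p
    obtain ⟨hu1, hu2⟩ := mem_perp2.1 hu
    have h1 : polar Q w (u + a • v + b • w) = a := by
      rw [polar_add_right, polar_add_right, polar_smul_right, polar_smul_right, p_self,
        polar_comm _ w v, h, hu2]
      simp
    have h2 : polar Q v (u + a • v + b • w) = b := by
      rw [polar_add_right, polar_add_right, polar_smul_right, polar_smul_right, p_self, h, hu1]
      simp
    refine Prod.ext (Subtype.ext ?_) (Prod.ext ?_ ?_)
    · show u + a • v + b • w + polar Q w (u + a • v + b • w) • v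
        + polar Q v (u + a • v + b • w) • w = u
      rw [h1, h2]
      have h3 := v_add (a • v)
      have h4 := v_add (b • w)
      calc u + a • v + b • w + a • v + b • w
          = u + (a • v + a • v) + (b • w + b • w) := by abel
        _ = u := by rw [h3, h4, add_zero, add_zero]
    · exact h1
    · exact h2
  right_inv x := by
    show x + polar Q w x • v + polar Q v x • w + polar Q w x • v + polar Q v x • w = x
    have h3 := v_add (polar Q w x • v)
    have h4 := v_add (polar Q v x • w)
    calc x + polar Q w x • v + polar Q v x • w + polar Q w x • v + polar Q v x • w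
        = x + (polar Q w x • v + polar Q w x • v)
          + (polar Q v x • w + polar Q v x • w) := by abel
      _ = x := by rw [h3, h4, add_zero, add_zero]

theorem split_apply {v w : V} (h : polar Q v w = 1) (u : perp2 Q v w) (a b : F₂) :
    split h (u, a, b) = (u : V) + a • v + b • w := rfl

theorem q_split {v w : V} (h : polar Q v w = 1) (hv : Q v = 0) (hw : Q w = 0)
    (u : perp2 Q v w) (a b : F₂) : Q (split h (u, a, b)) = Q u + a * b := by
  obtain ⟨hu1, hu2⟩ := mem_perp2.1 u.2
  rw [split_apply, q_add, q_add, QuadraticMap.map_smul, QuadraticMap.map_smul, hv, hw, polar_add_left, polar_smul_right,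
    polar_smul_right, polar_smul_right, polar_smul_left, polar_comm _ (u : V) v,
    polar_comm _ (u : V) w, hu1, hu2, h]
  simp [mul_comm]

/-- the form on the orthogonal subspace -/
noncomputable def res (Q : QuadraticForm F₂ V) (v w : V) : QuadraticForm F₂ (perp2 Q v w) :=
  Q.comp (perp2 Q v w).subtype

theorem res_apply (v w : V) (u : perp2 Q v w) : res Q v w u = Q u := rfl

theorem polar_res (v w : V) (x y : perp2 Q v w) : polar (res Q v w) x y = polar Q x y := rfl

theorem res_nondeg (hQ : ∀ x, (∀ y, polar Q x y = 0) → x = 0) {v w : V}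
    (h : polar Q v w = 1) : ∀ x, (∀ y, polar (res Q v w) x y = 0) → x = 0 := by
  intro x hx
  apply Subtype.ext
  apply hQ
  intro y
  obtain ⟨⟨u, a, b⟩, rfl⟩ := (split h).surjective y
  obtain ⟨hx1, hx2⟩ := mem_perp2.1 x.2
  have h1 := hx u
  rw [polar_res] at h1
  rw [split_apply, polar_add_right, polar_add_right, polar_smul_right, polar_smul_right,
    polar_comm _ (x : V) v, polar_comm _ (x : V) w, hx1, hx2, h1]
  simp

theorem finrank_perp2 [FiniteDimensional F₂ V] {v w : V} (h : polar Q v w = 1) :
    finrank F₂ V = finrank F₂ (perp2 Q v w) + 2 := by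
  rw [← LinearEquiv.finrank_eq (split h), finrank_prod, finrank_prod, finrank_self]

end

/-- **Classification of the non degenerate forms.** -/
theorem classify (n : ℕ) : ∀ {V : Type u} [AddCommGroup V] [Module F₂ V] [FiniteDimensional F₂ V]
    (Q : QuadraticForm F₂ V), (∀ x, (∀ y, polar Q x y = 0) → x = 0) → finrank F₂ V = 2 * n →
    (∃ e : (Fin n ⊕ Fin n → F₂) ≃ₗ[F₂] V, ∀ x, Q (e x) = plusForm n F₂ x) ∨
      (∃ m, n = m + 1 ∧ ∃ e : ((Fin m ⊕ Fin m) ⊕ Fin 2 → F₂) ≃ₗ[F₂] V,
        ∀ x, Q (e x) = minusForm m F₂ 1 1 x) := by
  induction n with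
  | zero =>
    intro V _ _ _ Q hQ hd
    left
    haveI : Subsingleton V := finrank_zero_iff.1 (by omega)
    refine ⟨{ (0 : (Fin 0 ⊕ Fin 0 → F₂) →ₗ[F₂] V) with
      invFun := fun _ => 0
      left_inv := fun x => Subsingleton.elim _ _
      right_inv := fun x => Subsingleton.elim _ _ }, fun x => ?_⟩
    rw [plusForm_apply]
    simp only [Finset.univ_eq_empty, Finset.sum_empty]
    have : ∀ y : V, Q y = 0 := by
      intro y
      rw [Subsingleton.elim y 0, map_zero]
    exact this _
  | succ n ih =>
    intro V _ _ _ Q hQ hd
    have hpair : ∀ v : V, v ≠ 0 → ∃ w, polar Q v w = 1 := by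
      intro v hv
      by_contra hcon
      push Not at hcon
      apply hv
      apply hQ
      intro y
      by_contra h
      exact hcon y (z_ne h)
    by_cases hex : ∃ v : V, v ≠ 0 ∧ Q v = 0
    · obtain ⟨v, hv, hqv⟩ := hex
      obtain ⟨w₀, hw₀⟩ := hpair v hv
      obtain ⟨w, hw, hqw⟩ : ∃ w, polar Q v w = 1 ∧ Q w = 0 := by
        refine ⟨w₀ + Q w₀ • v, ?_, ?_⟩
        · rw [polar_add_right, polar_smul_right, p_self, hw₀]; simp
        · rw [q_add, QuadraticMap.map_smul, hqv, polar_smul_right, polar_comm _ w₀ v, hw₀]
          simp only [smul_eq_mul, mul_zero, mul_one, add_zero]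
          exact z_add _
      have hfin := finrank_perp2 hw
      rcases ih (res Q v w) (res_nondeg hQ hw) (by omega) with ⟨e, he⟩ | ⟨m, hm, e, he⟩
      · left
        refine ⟨((plusStep n F₂).symm.trans
          (e.prodCongr (LinearEquiv.refl F₂ (F₂ × F₂)))).trans (split hw), fun x => ?_⟩
        obtain ⟨⟨y, a, b⟩, rfl⟩ := (plusStep n F₂).surjective x
        rw [plusForm_plusStep, ← he]
        rw [LinearEquiv.trans_apply, LinearEquiv.trans_apply, LinearEquiv.symm_apply_apply]
        exact q_split hw hqv hqw (e y) a b
      · right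
        refine ⟨m + 1, by omega, ((minusStep m F₂).symm.trans
          (e.prodCongr (LinearEquiv.refl F₂ (F₂ × F₂)))).trans (split hw), fun x => ?_⟩
        obtain ⟨⟨y, a, b⟩, rfl⟩ := (minusStep m F₂).surjective x
        rw [minusForm_minusStep, ← he]
        rw [LinearEquiv.trans_apply, LinearEquiv.trans_apply, LinearEquiv.symm_apply_apply]
        exact q_split hw hqv hqw (e y) a b
    · push Not at hex
      right
      have hn : n = 0 := by
        by_contra hn
        haveI : Fact (Nat.Prime 2) := ⟨Nat.prime_two⟩
        obtain ⟨v, hv, hqv⟩ := Cfsg.Agent.S0762.result Q (by omega)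
        exact hex v hv hqv
      subst hn
      refine ⟨0, rfl, ?_⟩
      haveI : Nontrivial V := Module.nontrivial_of_finrank_pos (R := F₂) (by omega)
      obtain ⟨v, hv⟩ := exists_ne (0 : V)
      obtain ⟨w, hw⟩ := hpair v hv
      have hqv : Q v = 1 := z_ne (hex v hv)
      have hqw : Q w = 1 := by
        apply z_ne
        apply hex
        rintro rfl
        rw [polar_zero_right] at hw
        exact zero_ne_one hw
      let L : ((Fin 0 ⊕ Fin 0) ⊕ Fin 2 → F₂) →ₗ[F₂] V :=
        (LinearMap.proj (Sum.inr 0)).smulRight v + (LinearMap.proj (Sum.inr 1)).smulRight w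
      have hL : ∀ x, L x = x (.inr 0) • v + x (.inr 1) • w := fun x => rfl
      have hQL : ∀ x, Q (L x) = minusForm 0 F₂ 1 1 x := by
        intro x
        rw [hL, q_add, QuadraticMap.map_smul, QuadraticMap.map_smul, hqv, hqw, polar_smul_left, polar_smul_right, hw,
          minusForm_apply, plusForm_apply, binForm_apply]
        simp only [smul_eq_mul, mul_one, Finset.univ_eq_empty, Finset.sum_empty, one_mul]
        ring
      have hinj : Function.Injective L := by
        rw [← LinearMap.ker_eq_bot, LinearMap.ker_eq_bot']
        intro x hx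
        have h1 : polar Q (L x) w = 0 := by rw [hx, polar_zero_left]
        have h2 : polar Q (L x) v = 0 := by rw [hx, polar_zero_left]
        rw [hL, polar_add_left, polar_smul_left, polar_smul_left, p_self, hw] at h1
        rw [hL, polar_add_left, polar_smul_left, polar_smul_left, p_self, polar_comm _ w v,
          hw] at h2
        funext i
        rcases i with i | i
        · rcases i with i | i <;> exact i.elim0
        · fin_cases i
          · simpa using h1
          · simpa using h2
      have hfin : finrank F₂ ((Fin 0 ⊕ Fin 0) ⊕ Fin 2 → F₂) = finrank F₂ V := by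
        rw [hd, Module.finrank_fintype_fun_eq_card]
        rfl
      exact ⟨LinearEquiv.ofInjectiveOfFinrankEq L hinj hfin, hQL⟩

end Cfsg.Agent.H805.QTwo
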